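import Mathlib
import Cfsg.Agent.H934.RowRgd
import Cfsg.Agent.H934.RowOrb
import Cfsg.Agent.H934.RowTwE6
import Cfsg.Agent.H934.HeisF4Even

/-!
# The row of `F₄(q)`, `q ≥ 4` even (S5880)
-/

set_option autoImplicit false

namespace Cfsg.Agent.H934.RowF4

open CoxeterSystem Cfsg.Agent.ChevalleyStructure.CoxeterGeom Cfsg.Agent.Tits.Roots Cfsg.Agent.Tits.Core
  Cfsg.Agent.Tits.Exchange Cfsg.Agent.Nodes.Reps Cfsg.Agent.Nodes.BNOf Cfsg.Agent.Nodes.StabComb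
  Cfsg.Agent.Nodes.Bruhat Cfsg.Agent.Nodes.OppDec Cfsg.Agent.Nodes.LeviDec Cfsg.Agent.Nodes.NormalForm
open Cfsg.Agent.KFacts.RgdOpp Cfsg.Agent.KFacts.RgdAut Cfsg.Agent.KFacts.RgdDiag Cfsg.Agent.KFacts.RgdRigid
  Cfsg.Agent.H430.CfBase Cfsg.Agent.H934.RowOrb
open Cfsg.Lie Cfsg.Agent.ChevalleyStructure Cfsg.Agent.H35.ExcIdx Cfsg.Agent.H35.PoinNum
  Cfsg.Agent.Nodes.RGDChev Cfsg.Agent.ChevalleyStructure.CoxeterGeomTypes Cfsg.Agent.ChevalleyStructure.RootVec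
  Cfsg.Agent.ChevalleyStructure.NPerm

universe u

/-- minimal coset representatives -/
def LF : List (List (Fin 4)) := [[], [1], [2, 1], [1, 2, 1]]

theorem orbF : OrbOK (cartanOf chevF4 4) [1, 2] 1 LF := by constructor <;> decide +kernel

theorem pathF : PathOK CoxeterMatrix.F₄ [2] [2] [] 0 := by constructor <;> decide +kernel

theorem sum_LF (q : ℕ) : (LF.map fun ω => (ω.map fun _ => q).prod).sum = 1 + q + q ^ 2 + q ^ 3 := by
  simp only [LF, List.map_cons, List.map_nil, List.prod_cons, List.prod_nil, List.sum_cons, List.sum_nil]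
  ring

theorem arith {q i : ℕ} (hq : 4 ≤ q)
    (h : i * ((1 + q + q ^ 2 + q ^ 3) * (1 + q)) * (q - 1) ^ 4 = pr q [2, 6, 8, 12]) : i * (q - 1) ^ 4 ≤ q ^ 24 := by
  have h1 : q ^ 4 ≤ (1 + q + q ^ 2 + q ^ 3) * (1 + q) := by
    have : (1 + q + q ^ 2 + q ^ 3) * (1 + q) = q ^ 4 + (1 + 2 * q + 2 * q ^ 2 + 2 * q ^ 3) := by ring
    omega
  have h2 : pr q [2, 6, 8, 12] ≤ q ^ 28 := by
    simp only [pr_cons, pr_nil, mul_one]
    calc (q ^ 2 - 1) * ((q ^ 6 - 1) * ((q ^ 8 - 1) * (q ^ 12 - 1))) ≤ q ^ 2 * (q ^ 6 * (q ^ 8 * q ^ 12)) :=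
          Nat.mul_le_mul (Nat.sub_le _ _) (Nat.mul_le_mul (Nat.sub_le _ _)
            (Nat.mul_le_mul (Nat.sub_le _ _) (Nat.sub_le _ _)))
      _ = q ^ 28 := by ring
  have h3 : q ^ 4 * (i * (q - 1) ^ 4) ≤ q ^ 4 * q ^ 24 := by
    calc q ^ 4 * (i * (q - 1) ^ 4) ≤ ((1 + q + q ^ 2 + q ^ 3) * (1 + q)) * (i * (q - 1) ^ 4) :=
          Nat.mul_le_mul_right _ h1
      _ = i * ((1 + q + q ^ 2 + q ^ 3) * (1 + q)) * (q - 1) ^ 4 := by ring
      _ ≤ q ^ 28 := by rw [h]; exact h2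
      _ = q ^ 4 * q ^ 24 := by ring
  exact Nat.le_of_mul_le_mul_left h3 (by positivity)

theorem mid : ∀ i : Fin 4, i ∈ ({j | j ∈ ([1, 2] : List (Fin 4))} : Set (Fin 4)) ↔ ∃ j, RowTwE6.mF i j = 4 := by
  intro i
  show i ∈ [1, 2] ↔ _
  revert i
  decide

/-- **The row of `F₄(q)`, `q ≥ 4` even.** -/
theorem row {K : Type u} [Field K] [Fintype K] [CharP K 2] (h4 : 4 ≤ Fintype.card K)
    (hs : IsSimpleGroup ↥(chevF4.group K)) : Row ↥(chevF4.group K) := by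
  have : Finite (GL chevF4.Idx K) := inferInstance
  have hp2 : Fact (Nat.Prime 2) := ⟨Nat.prime_two⟩
  obtain ⟨f, hf, hK⟩ := FiniteField.card K 2
  obtain ⟨f, hf0⟩ := f
  have hK : Fintype.card K = 2 ^ f := hK
  have hf1 : f ≠ 0 := hf0.ne'
  have hfin := finite_W hpF4 CoxeterMatrix.F₄.toCoxeterSystem
  have hR := rgd (K := K) hpF4 CoxeterMatrix.F₄.toCoxeterSystem 2
  have hGG := GG_eq_top hpF4 K CoxeterMatrix.F₄.toCoxeterSystem
  have hc : ∀ i, Nat.card (XX chevF4 4 K (sr i)) = 2 ^ f := fun i => by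
    rw [card_XX hpF4 K CoxeterMatrix.F₄.toCoxeterSystem (isRoot_sr _ _ i), Nat.card_eq_fintype_card, hK]
  have hN := card_orbit hR orbF (f := fun _ => 2 ^ f) hc (JL' := [2]) (by decide)
    (card_step hR pathF (fun i _ => hc i) (card_nil hR))
  have hFA : FA [(2 : Fin 4)].length (2 ^ f) * 1 = 1 + 2 ^ f := by simp [FA, Finset.sum_range_succ]
  rw [hFA, sum_LF] at hN
  have h6 := index_split hpF4 K Nat.prime_two hf1 hK CoxeterMatrix.F₄.toCoxeterSystem (d := 1)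
    (P := pr (2 ^ f) [2, 6, 8, 12]) (by norm_num)
    (by rw [← hK]; exact Cfsg.Agent.S1035.result rfl (chevF4, 1) (by simp))
    ⟨f * 24, by
      rw [pow_mul]
      simp only [pr_cons, pr_nil]
      rw [one_mul, Cfsg.Agent.S1062.result hK]
      ring⟩ (not_dvd_pr Nat.prime_two hf1 _ (by simp)) hN
  have h7 := arith (q := 2 ^ f) (by rw [← hK]; exact h4) h6
  refine RowRgd.row_of hR hGG (J := {j | j ∈ ([1, 2] : List (Fin 4))}) (i := 0) (by simp) (fun β σ D i => ?_)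
    fun L hL => ?_
  · have hM : ∀ i j, RowTwE6.mF (σ i) (σ j) = RowTwE6.mF i j := fun i j => by
      rw [← RowTwE6.mF_eq, ← RowTwE6.mF_eq]
      exact D.matrix (R := hR) i j
    rw [mid, mid]
    constructor
    · rintro ⟨j, hj⟩
      refine ⟨σ⁻¹ j, ?_⟩
      rw [← hM, show σ (σ⁻¹ j) = j from σ.apply_symm_apply j]
      exact hj
    · rintro ⟨j, hj⟩
      exact ⟨σ j, by rw [hM]; exact hj⟩
  · have h8 := HeisF4Even.card_arith h4 (HeisF4Even.main hs L hL)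
    rw [hK] at h8
    have h9 : 0 < (2 ^ f - 1) ^ 4 := by
      have : 4 ≤ 2 ^ f := by rw [← hK]; exact h4
      apply pow_pos
      omega
    refine Nat.le_of_mul_le_mul_left ?_ h9
    calc (2 ^ f - 1) ^ 4 * _ = _ * (2 ^ f - 1) ^ 4 := mul_comm _ _
      _ ≤ (2 ^ f) ^ 24 := h7
      _ ≤ _ := h8

end Cfsg.Agent.H934.RowF4
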